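import Mathlib
import Cfsg.Agent.Lib.Helper70.Alp.S3782Defs

/-!
# S3782, package (H2) `LemDerCard` (helper15)

The derived length of a finite solvable group is at most its order.
-/

set_option autoImplicit false

namespace Cfsg.Agent.Lib.Helper15.Alp

universe u

/-- If two consecutive terms of the derived series agree, the series is constant from there. -/
theorem derivedSeries_const_of_eq {S : Type u} [Group S] (k : ℕ)
    (h : derivedSeries S (k + 1) = derivedSeries S k) (m : ℕ) :
    derivedSeries S (k + m) = derivedSeries S k := by
  induction m with
  | zero => rfl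
  | succ m ih =>
    rw [← Nat.add_assoc, derivedSeries_succ, ih, ← derivedSeries_succ, h]

/-- In a solvable group the derived series is strictly decreasing until it reaches `⊥`. -/
theorem derivedSeries_succ_lt {S : Type u} [Group S] (hS : Group.IsSolvable S) (k : ℕ)
    (hk : derivedSeries S k ≠ ⊥) : derivedSeries S (k + 1) < derivedSeries S k := by
  refine lt_of_le_of_ne ?_ ?_
  · exact derivedSeries_antitone S (Nat.le_succ k)
  · intro h
    obtain ⟨n, hn⟩ := hS.solvable
    have h1 := derivedSeries_const_of_eq k h n
    have h2 : derivedSeries S (k + n) ≤ derivedSeries S n :=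
      derivedSeries_antitone S (Nat.le_add_left n k)
    rw [hn, le_bot_iff] at h2
    exact hk (h1 ▸ h2)

theorem derivedSeries_card_bound {S : Type u} [Group S] [Finite S] (hS : Group.IsSolvable S)
    (k : ℕ) : derivedSeries S k = ⊥ ∨ Nat.card (derivedSeries S k) + k ≤ Nat.card S := by
  induction k with
  | zero =>
    right
    rw [derivedSeries_zero, Subgroup.card_top]
    exact le_rfl
  | succ k ih =>
    by_cases hk : derivedSeries S k = ⊥
    · left
      have h2 : derivedSeries S (k + 1) ≤ derivedSeries S k :=
        derivedSeries_antitone S (Nat.le_succ k)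
      rw [hk, le_bot_iff] at h2
      exact h2
    · right
      rcases ih with ih | ih
      · exact absurd ih hk
      · have hlt := derivedSeries_succ_lt hS k hk
        have hc : Nat.card (derivedSeries S (k + 1)) < Nat.card (derivedSeries S k) := by
          have h3 := Set.ncard_lt_ncard (s := (derivedSeries S (k + 1) : Set S))
            (t := (derivedSeries S k : Set S)) (SetLike.coe_ssubset_coe.mpr hlt)
            (Set.toFinite _)
          rw [← Nat.card_coe_set_eq, ← Nat.card_coe_set_eq] at h3
          exact h3
        omega

theorem lemDerCard : Cfsg.Agent.Lib.Helper70.Alp.LemDerCard.{u} := by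
  intro S _ _ hS
  rcases derivedSeries_card_bound hS (Nat.card S) with h | h
  · exact h
  · have hpos : 0 < Nat.card (derivedSeries S (Nat.card S)) := Nat.card_pos
    omega

end Cfsg.Agent.Lib.Helper15.Alp
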